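import Mathlib
import Cfsg.Agent.Lib.VanP.Defs
import Cfsg.Agent.Lib.CamPair.FixCount
import Cfsg.Agent.Lib.Char.Burnside2
import Cfsg.Agent.Lib.Char.CompleteCor

/-! Piece BR of S4848: bookkeeping for `Fixes`, and the trivial character is the only one fixed by
a fixed-point-free automorphism. -/

set_option autoImplicit false

namespace Cfsg.Agent.Lib.VanP

open Cfsg Cfsg.Agent.Lib.Char.Clifford

universe u

theorem fixes_iff_conjFun {G : Type u} [Group G] (M : Subgroup G) [hM : M.Normal] (θ : M → ℂ) (u : G) :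
    Fixes M θ u ↔ conjFun M u θ = θ := by
  constructor
  · intro h
    funext a
    rw [conjFun_apply]
    exact h a _ rfl
  · intro h a b hb
    have h2 := congrFun h a
    rw [conjFun_apply] at h2
    have h3 : b = ⟨u * a * u⁻¹, hM.conj_mem a a.2 u⟩ := Subtype.ext hb
    rw [h3, h2]

theorem fixes_mul_mem {G : Type u} [Group G] [Finite G] (M : Subgroup G) [hM : M.Normal]
    (θ : Cfsg.IrrCharacter M) (u m : G) (hm : m ∈ M) :
    Fixes M (θ : M → ℂ) (u * m) ↔ Fixes M (θ : M → ℂ) u := by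
  classical
  have := Fintype.ofFinite M
  have hcl : ∀ {g h : M}, IsConj g h → (θ : M → ℂ) g = (θ : M → ℂ) h := fun hc =>
    Cfsg.Agent.Lib.Char.CompleteCor.irr_apply_of_isConj hc θ
  constructor
  · intro h a b hb
    let a' : M := ⟨m⁻¹ * a * m, by simpa using hM.conj_mem a a.2 m⁻¹⟩
    have h1 := h a' b (by rw [hb]; simp only [a']; group)
    rw [h1]
    apply hcl
    rw [isConj_iff]
    refine ⟨⟨m, hm⟩, ?_⟩
    apply Subtype.ext
    simp only [a', Subgroup.coe_mul, Subgroup.coe_inv]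
    group
  · intro h a b hb
    let a' : M := ⟨m * a * m⁻¹, hM.conj_mem a a.2 m⟩
    have h1 := h a' b (by rw [hb]; simp only [a']; group)
    rw [h1]
    apply hcl
    rw [isConj_iff]
    refine ⟨⟨m⁻¹, M.inv_mem hm⟩, ?_⟩
    apply Subtype.ext
    simp only [a', Subgroup.coe_mul, Subgroup.coe_inv]
    group

theorem Fixes.pow {G : Type u} [Group G] {M : Subgroup G} [hM : M.Normal] {θ : M → ℂ} {u : G}
    (h : Fixes M θ u) (k : ℕ) : Fixes M θ (u ^ k) := by
  induction k with
  | zero =>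
    intro a b hb
    have : b = a := Subtype.ext (by rw [hb]; simp)
    rw [this]
  | succ k ih =>
    intro a b hb
    let a' : M := ⟨u * a * u⁻¹, hM.conj_mem a a.2 u⟩
    have h1 := ih a' b (by rw [hb]; simp only [a']; group)
    rw [h1]
    exact h a a' rfl

/-- A nontrivial group has a nontrivial irreducible character. -/
theorem exists_nontrivial_irr {G : Type u} [Group G] [Finite G] (M : Subgroup G) (h : M ≠ ⊥) :
    ∃ θ : Cfsg.IrrCharacter M, ¬ ∀ m : M, (θ : M → ℂ) m = 1 := by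
  classical
  by_contra hcon
  push Not at hcon
  have := Fintype.ofFinite M
  apply h
  rw [Subgroup.eq_bot_iff_forall]
  intro m hm
  have hc : IsConj (⟨m, hm⟩ : M) 1 :=
    Cfsg.Agent.Lib.Char.CompleteCor.isConj_of_forall_irr fun χ => by
      rw [hcon χ, hcon χ]
  have h1 : (⟨m, hm⟩ : M) = 1 := isConj_one_right.1 hc.symm
  exact congrArg Subtype.val h1

theorem trivial_of_fixes_fpf {G : Type u} [Group G] [Finite G] {p : ℕ} [Fact p.Prime]
    (M : Subgroup G) [hM : M.Normal]
    (hM' : (Nat.card M).Coprime p) (u : G) (hu : ∃ k : ℕ, u ^ (p ^ k) = 1)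
    (hfpf : ∀ m ∈ M, u * m = m * u → m = 1) (θ : Cfsg.IrrCharacter M) (h : Fixes M (θ : M → ℂ) u) :
    ∀ m : M, (θ : M → ℂ) m = 1 := by
  classical
  have := Fintype.ofFinite M
  -- the Lang map is bijective
  let φ : M → M := fun m => m⁻¹ * ⟨u * m * u⁻¹, hM.conj_mem m m.2 u⟩
  have hinj : Function.Injective φ := by
    intro m k hmk
    have h1 : (m : G)⁻¹ * (u * m * u⁻¹) = (k : G)⁻¹ * (u * k * u⁻¹) := congrArg Subtype.val hmk
    have h3 : (m : G)⁻¹ * (u * m) = (k : G)⁻¹ * (u * k) := by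
      have h4 := congrArg (· * u) h1
      simpa [mul_assoc] using h4
    have h2 : (k : G) * (m : G)⁻¹ = 1 := by
      apply hfpf _ (M.mul_mem k.2 (M.inv_mem m.2))
      calc u * ((k : G) * (m : G)⁻¹) = (k : G) * ((k : G)⁻¹ * (u * k)) * (m : G)⁻¹ := by group
        _ = (k : G) * ((m : G)⁻¹ * (u * m)) * (m : G)⁻¹ := by rw [h3]
        _ = (k : G) * (m : G)⁻¹ * u := by group
    apply Subtype.ext
    exact (mul_inv_eq_one.1 h2).symm
  have hsurj : Function.Surjective φ := Finite.surjective_of_injective hinj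
  have hcard : Nat.card {ρ : IrrCharacter M // conjFun M u (ρ : M → ℂ) = ρ} = 1 := by
    apply Cfsg.Agent.Lib.CamPair.card_fixed_irr M u 1
    intro n hn
    obtain ⟨m, hm⟩ := hsurj ⟨n, hn⟩
    have h1 : (m : G)⁻¹ * (u * m * u⁻¹) = n := congrArg Subtype.val hm
    have h2 : n * u = (m : G)⁻¹ * u * m := by
      rw [← h1]
      group
    have h3 : Subgroup.centralizer ({n * u} : Set G) ⊓ M = ⊥ := by
      rw [Subgroup.eq_bot_iff_forall]
      rintro c ⟨hc1, hc2⟩
      have hc3 : (n * u) * c = c * (n * u) := (Subgroup.mem_centralizer_iff.1 hc1) _ rfl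
      rw [h2] at hc3
      have hc4 : (m : G) * c * (m : G)⁻¹ = 1 := by
        apply hfpf _ (hM.conj_mem c hc2 m)
        calc u * ((m : G) * c * (m : G)⁻¹)
            = (m : G) * (((m : G)⁻¹ * u * m) * c) * (m : G)⁻¹ := by group
          _ = (m : G) * (c * ((m : G)⁻¹ * u * m)) * (m : G)⁻¹ := by rw [hc3]
          _ = (m : G) * c * (m : G)⁻¹ * u := by group
      have := (mul_inv_eq_one.1 hc4)
      have h5 : c = 1 := by
        have h6 : (m : G) * c = (m : G) * 1 := by rw [this, mul_one]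
        exact mul_left_cancel h6
      exact h5
    rw [h3, Subgroup.card_bot]
  let one : IrrCharacter M := ⟨fun _ => 1, Cfsg.Agent.Lib.Char.Burnside2.isIrrCharacter_one⟩
  have h1 : conjFun M u (one : M → ℂ) = one := rfl
  have h2 := (fixes_iff_conjFun M _ u).1 h
  have hss := (Nat.card_eq_one_iff_unique.1 hcard).1
  have h3 : (⟨θ, h2⟩ : {ρ : IrrCharacter M // conjFun M u (ρ : M → ℂ) = ρ}) = ⟨one, h1⟩ := hss.elim _ _
  have h4 : θ = one := congrArg Subtype.val h3
  intro m
  rw [h4]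

end Cfsg.Agent.Lib.VanP
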