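import Mathlib
import Cfsg.Agent.Lib.VanP.Defs
import Cfsg.Agent.Lib.Char.FrobCong
import Cfsg.Agent.Lib.Char.Integrality
import Cfsg.Agent.Lib.Char.B0Height
import Cfsg.Agent.Lib.Char.ItoMichler
import Cfsg.Agent.S0191
import Cfsg.Agent.S4456

/-! S4848 piece V0: Burnside's zero theorem for `Cfsg.IrrCharacter`, `p ∣ χ(1)` at a zero which
is a `p`-element, the normal `p`-complement and the abelian `p'`-case. -/

set_option autoImplicit false

namespace Cfsg.Agent.Lib.VanP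

universe u

variable {G : Type u} [Group G] [Finite G]

/-- Burnside: an irreducible character of degree > 1 has a zero. -/
theorem exists_zero_of_degree_ne_one {G : Type u} [Group G] [Finite G] (χ : Cfsg.IrrCharacter G)
    (hχ : Cfsg.charDegree (χ : G → ℂ) ≠ 1) : ∃ g : G, (χ : G → ℂ) g = 0 := by
  obtain ⟨χ, hirr⟩ := χ
  have hne := Cfsg.Agent.Lib.Char.B0Height.charDegree_ne_zero hirr
  have hcast := Cfsg.Agent.Lib.Char.Values.IsCharacter.charDegree_cast
    (Cfsg.Agent.Lib.Char.Basic.isCharacter_of_isIrrCharacter hirr)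
  obtain ⟨n, ρ, hρ, rfl⟩ := hirr
  have := hρ
  have h1 : ρ.character 1 = (Module.finrank ℂ (Fin n → ℂ) : ℂ) := by
    simp [Representation.character]
  have hdeg : Cfsg.charDegree ρ.character = Module.finrank ℂ (Fin n → ℂ) := by
    have : ((Cfsg.charDegree ρ.character : ℕ) : ℂ) = (Module.finrank ℂ (Fin n → ℂ) : ℂ) := by
      rw [hcast, h1]
    exact_mod_cast this
  have hgt : 1 < Module.finrank ℂ (Fin n → ℂ) := by
    rw [← hdeg]
    simp only at hχ hne
    omega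
  exact Cfsg.Agent.S0191.result ρ hgt

/-- `χ(g) ≡ χ(1)` mod a prime over `p` for a `p`-element `g`. -/
theorem dvd_degree_of_zero {p : ℕ} [Fact p.Prime] (χ : Cfsg.IrrCharacter G) (g : G)
    (hg : ∃ k : ℕ, g ^ (p ^ k) = 1) (h0 : (χ : G → ℂ) g = 0) : p ∣ Cfsg.charDegree (χ : G → ℂ) := by
  obtain ⟨k, hk⟩ := hg
  have hp : p.Prime := Fact.out
  have hχ : Cfsg.IsCharacter G (χ : G → ℂ) :=
    Cfsg.Agent.Lib.Char.Basic.isCharacter_of_isIrrCharacter χ.2
  have h := Cfsg.Agent.Lib.Char.FrobCong.val_pow_pow_sub_mem hχ p hp g k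
  have hv0 : Cfsg.Agent.Lib.Char.FrobCong.val hχ g = 0 := Subtype.ext h0
  rw [hv0, hk, zero_pow (pow_ne_zero k hp.ne_zero), zero_sub, neg_mem_iff,
    Ideal.mem_span_singleton] at h
  obtain ⟨r, hr⟩ := h
  have hcast := Cfsg.Agent.Lib.Char.Values.IsCharacter.charDegree_cast hχ
  have hval : ((Cfsg.Agent.Lib.Char.FrobCong.val hχ (1 : G) : Cfsg.AlgInt) : ℂ) =
      ((Cfsg.charDegree (χ : G → ℂ) : ℕ) : ℂ) := by
    rw [hcast]; rfl
  refine Cfsg.Agent.Lib.Char.Integrality.natCast_dvd_of_isIntegral_div hp.ne_zero ?_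
  have hrc : ((Cfsg.charDegree (χ : G → ℂ) : ℕ) : ℂ) = (p : ℂ) * (r : ℂ) := by
    rw [← hval, hr]; push_cast; rfl
  have hp0 : (p : ℂ) ≠ 0 := by exact_mod_cast hp.ne_zero
  have : ((Cfsg.charDegree (χ : G → ℂ) : ℕ) : ℂ) / (p : ℂ) = (r : ℂ) := by
    rw [hrc]; field_simp
  rw [this]
  exact r.2

theorem exists_complement {p : ℕ} [Fact p.Prime] (hv : HV p G) :
    ∃ N : Subgroup G, N.Normal ∧ (Nat.card N).Coprime p ∧ ∃ k : ℕ, N.index = p ^ k := by
  refine Cfsg.Agent.S4456.result p Fact.out (fun χ hχ => ?_)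
  obtain ⟨g, hg⟩ := exists_zero_of_degree_ne_one χ hχ
  obtain ⟨m, -, hm⟩ := hv g ⟨χ, hg⟩
  exact dvd_degree_of_zero χ g ⟨m, by rw [← hm, pow_orderOf_eq_one]⟩ hg

/-- A group of order prime to `p` with `HV` is abelian. -/
theorem abelian_of_coprime {p : ℕ} [Fact p.Prime] (hv : HV p G) (hc : (Nat.card G).Coprime p) :
    ∀ a b : G, a * b = b * a := by
  refine Cfsg.Agent.Lib.Char.ItoMichler.mul_comm_of_forall_degree_one (fun χ => ?_)
  have hp : p.Prime := Fact.out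
  have hcast := Cfsg.Agent.Lib.Char.Values.IsCharacter.charDegree_cast
    (Cfsg.Agent.Lib.Char.Basic.isCharacter_of_isIrrCharacter χ.2)
  by_contra hne
  have hχ : Cfsg.charDegree (χ : G → ℂ) ≠ 1 := by
    intro h1
    apply hne
    rw [← hcast, h1, Nat.cast_one]
  obtain ⟨g, hg⟩ := exists_zero_of_degree_ne_one χ hχ
  obtain ⟨m, hm1, hm⟩ := hv g ⟨χ, hg⟩
  have h1 : p ∣ orderOf g := by
    rw [hm]
    exact dvd_pow_self p (by omega)
  have h2 : p ∣ Nat.card G := h1.trans (orderOf_dvd_natCard g)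
  have h3 := Nat.Coprime.eq_one_of_dvd hc.symm h2
  exact hp.one_lt.ne' h3

end Cfsg.Agent.Lib.VanP
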