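import Mathlib
import Cfsg.Agent.Lib.VanP.Defs
import Cfsg.Agent.Lib.Char.Integrality
import Cfsg.Agent.Lib.Char.OrthoBasic
import Cfsg.Agent.Lib.Char.Values

/-! Piece of V0 of S4848: a zero of an irreducible character at a `p`-element forces `p` to divide
the degree. In the ring of algebraic integers `(Σ ζ_i)^(p^k) ≡ Σ ζ_i^(p^k) = χ(1)` mod `p`. -/

set_option autoImplicit false

namespace Cfsg.Agent.Lib.VanP

universe u

theorem sum_pow_prime_pow_eq' {R ι : Type*} [CommRing R] {p : ℕ} (hp : p.Prime) (k : ℕ)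
    (s : Finset ι) (x : ι → R) :
    ∃ r : R, (∑ i ∈ s, x i) ^ p ^ k = ∑ i ∈ s, x i ^ p ^ k + p * r := by
  classical
  induction s using Finset.induction_on with
  | empty =>
    refine ⟨0, ?_⟩
    simp [hp.pos.ne']
  | insert a s ha ih =>
    obtain ⟨r, hr⟩ := ih
    obtain ⟨r', hr'⟩ := exists_add_pow_prime_pow_eq hp (x a) (∑ i ∈ s, x i) k
    refine ⟨r + x a * (∑ i ∈ s, x i) * r', ?_⟩
    rw [Finset.sum_insert ha, Finset.sum_insert ha, hr', hr]
    ring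

theorem dvd_degree_of_zero {G : Type u} [Group G] [Finite G] {p : ℕ} [hp : Fact p.Prime]
    (χ : Cfsg.IrrCharacter G) (g : G)
    (hg : ∃ k : ℕ, g ^ (p ^ k) = 1) (h0 : (χ : G → ℂ) g = 0) :
    p ∣ Cfsg.charDegree (χ : G → ℂ) := by
  classical
  obtain ⟨χ, hχ⟩ := χ
  have hcast := Cfsg.Agent.Lib.Char.Values.IsCharacter.charDegree_cast
    (Cfsg.Agent.Lib.Char.Values.IsIrrCharacter.isCharacter hχ)
  obtain ⟨n, ρ, hρ, rfl⟩ := hχ
  obtain ⟨k, hk⟩ := hg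
  have hpos : 0 < p ^ k := pow_pos hp.out.pos k
  have hpow : (ρ g) ^ (p ^ k) = 1 := by rw [← map_pow, hk, map_one]
  obtain ⟨ι, _, _, b, ζ, hb, hζ⟩ :=
    Cfsg.Agent.Lib.Char.OrthoBasic.exists_eigenbasis (ρ g) hpos hpow
  have htr : ρ.character g = ∑ i, ζ i :=
    Cfsg.Agent.Lib.Char.OrthoBasic.trace_eq_sum_of_eigenbasis (ρ g) b ζ hb
  have hone : ρ.character 1 = ∑ _i : ι, (1 : ℂ) :=
    Cfsg.Agent.Lib.Char.OrthoBasic.trace_eq_sum_of_eigenbasis (ρ 1) b (fun _ => 1) (by simp)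
  have hint : ∀ i, IsIntegral ℤ (ζ i) := fun i =>
    ⟨Polynomial.X ^ (p ^ k) - 1, Polynomial.monic_X_pow_sub_C 1 hpos.ne', by
      simp [hζ i]⟩
  let R := integralClosure ℤ ℂ
  let z : ι → R := fun i => ⟨ζ i, hint i⟩
  obtain ⟨r, hr⟩ := sum_pow_prime_pow_eq' hp.out k Finset.univ z
  have hr2 := congrArg (Subtype.val) hr
  have hr3 : (∑ i, ζ i) ^ p ^ k = ∑ i, (ζ i) ^ p ^ k + (p : ℂ) * (r : ℂ) := by
    simpa [z, R] using hr2
  have hs : ∑ i, ζ i = 0 := by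
    rw [← htr]; exact h0
  rw [hs, zero_pow hpos.ne'] at hr3
  simp only [hζ, Finset.sum_const, Finset.card_univ, nsmul_eq_mul, mul_one] at hr3
  have hpC : (p : ℂ) ≠ 0 := Nat.cast_ne_zero.mpr hp.out.ne_zero
  have hdeg : ((Cfsg.charDegree ρ.character : ℕ) : ℂ) = (Fintype.card ι : ℂ) := by
    rw [hcast, hone]; simp
  apply Cfsg.Agent.Lib.Char.Integrality.natCast_dvd_of_isIntegral_div hp.out.ne_zero
  rw [hdeg]
  have : (Fintype.card ι : ℂ) / (p : ℂ) = - (r : ℂ) := by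
    field_simp
    linear_combination -hr3
  rw [this]
  exact (r.2).neg

end Cfsg.Agent.Lib.VanP
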