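import Mathlib
import Cfsg.Agent.Lib.VanP.Defs
import Cfsg.Agent.Lib.Char.NormExt
import Cfsg.Agent.Lib.Char.LinearChars

/-! Piece FA of S4848: an element that is central modulo an abelian minimal normal subgroup `M` and does
not centralize `M` fixes only the trivial character of `M`. -/

set_option autoImplicit false

namespace Cfsg.Agent.Lib.VanP

universe u

namespace FixAb

variable {G : Type u} [Group G]

/-- `φ` is fixed by conjugation by `x`. -/
def Fx (M : Subgroup G) [M.Normal] (x : G) (φ : M →* ℂˣ) : Prop :=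
  ∀ a : M, φ (MulAut.conjNormal x a) = φ a

/-- The common kernel of the `x`-fixed linear characters of `M`. -/
def L0 (M : Subgroup G) [M.Normal] (x : G) : Subgroup G where
  carrier := {g | ∃ h : g ∈ M, ∀ φ : M →* ℂˣ, Fx M x φ → φ ⟨g, h⟩ = 1}
  one_mem' := ⟨one_mem _, fun φ _ => map_one φ⟩
  mul_mem' := by
    rintro a b ⟨ha, ha'⟩ ⟨hb, hb'⟩
    refine ⟨mul_mem ha hb, fun φ hφ => ?_⟩
    have : (⟨a * b, mul_mem ha hb⟩ : M) = ⟨a, ha⟩ * ⟨b, hb⟩ := rfl
    rw [this, map_mul, ha' φ hφ, hb' φ hφ, one_mul]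
  inv_mem' := by
    rintro a ⟨ha, ha'⟩
    refine ⟨inv_mem ha, fun φ hφ => ?_⟩
    have : (⟨a⁻¹, inv_mem ha⟩ : M) = (⟨a, ha⟩ : M)⁻¹ := rfl
    rw [this, map_inv, ha' φ hφ, inv_one]

theorem L0_le (M : Subgroup G) [M.Normal] (x : G) : L0 M x ≤ M := fun _ h => h.1

/-- Conjugation by `g` preserves `x`-fixed characters of the abelian group `M` when `x` is central mod `M`. -/
theorem Fx_conj (M : Subgroup G) [hN : M.Normal] (hab : ∀ a ∈ M, ∀ b ∈ M, a * b = b * a) (x : G)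
    (hcent : ∀ g : G, g * x * g⁻¹ * x⁻¹ ∈ M) (g : G) {φ : M →* ℂˣ} (hφ : Fx M x φ) :
    Fx M x (φ.comp (MulAut.conjNormal g).toMonoidHom) := by
  intro a
  simp only [MonoidHom.comp_apply, MulEquiv.coe_toMonoidHom]
  set b : M := MulAut.conjNormal g a with hb
  have hbv : (b : G) = g * a * g⁻¹ := by simp [hb]
  set m₁ : G := g * x * g⁻¹ * x⁻¹ with hm₁
  have hm₁M : m₁ ∈ M := hcent g
  set c : M := MulAut.conjNormal x b with hc
  have hcv : (c : G) = x * b * x⁻¹ := by simp [hc]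
  have e : MulAut.conjNormal g (MulAut.conjNormal x a) = c := by
    apply Subtype.ext
    have h1 : m₁ * (c : G) = (c : G) * m₁ := hab _ hm₁M _ c.2
    have h2 : ((MulAut.conjNormal g (MulAut.conjNormal x a) : M) : G) = g * (x * a * x⁻¹) * g⁻¹ := by simp
    rw [h2]
    have h3 : g * (x * a * x⁻¹) * g⁻¹ = m₁ * (c : G) * m₁⁻¹ := by
      rw [hcv, hbv, hm₁]
      group
    rw [h3, h1]
    group
  rw [e, hc, hφ b]

theorem L0_normal (M : Subgroup G) [hN : M.Normal] (hab : ∀ a ∈ M, ∀ b ∈ M, a * b = b * a) (x : G)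
    (hcent : ∀ g : G, g * x * g⁻¹ * x⁻¹ ∈ M) : (L0 M x).Normal := by
  constructor
  rintro n ⟨hn, hn'⟩ g
  refine ⟨hN.conj_mem n hn g, fun φ hφ => ?_⟩
  have h := hn' _ (Fx_conj M hab x hcent g hφ)
  simp only [MonoidHom.comp_apply, MulEquiv.coe_toMonoidHom] at h
  have e : MulAut.conjNormal g (⟨n, hn⟩ : M) = ⟨g * n * g⁻¹, hN.conj_mem n hn g⟩ := by
    apply Subtype.ext
    simp
  rwa [e] at h

end FixAb

open FixAb

variable {G : Type u} [Group G] [Finite G]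

theorem fix_trivial_of_central_mod (M : Subgroup G) (hmin : IsMinNormal M) [M.Normal]
    (hab : ∀ a ∈ M, ∀ b ∈ M, a * b = b * a) (x : G) (hx : ∃ m ∈ M, x * m ≠ m * x)
    (hcent : ∀ g : G, g * x * g⁻¹ * x⁻¹ ∈ M) (θ : Cfsg.IrrCharacter M) (hθ : Fixes M (θ : M → ℂ) x) :
    ∀ m : M, (θ : M → ℂ) m = 1 := by
  -- `θ` is a homomorphism
  have hcomm : ∀ a b : M, a * b = b * a := fun a b => Subtype.ext (hab a a.2 b b.2)
  have h1 : (θ : M → ℂ) 1 = 1 := Cfsg.Agent.Lib.Char.NormExt.irr_one_of_comm hcomm θ.2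
  obtain ⟨n, ρ, -, hρ⟩ := θ.2
  obtain ⟨φ, hφ⟩ := Cfsg.Agent.Lib.Char.LinearChars.exists_hom_of_isCharacter_one
    (χ := (θ : M → ℂ)) ⟨n, ρ, hρ⟩ h1
  have hFx : Fx M x φ := by
    intro a
    have h2 := hθ a (MulAut.conjNormal x a) (by simp)
    rw [hφ] at h2
    exact Units.ext h2
  rcases hmin.min (L0 M x) (L0_normal M hab x hcent) (L0_le M x) with h | h
  · exfalso
    obtain ⟨m, hm, hne⟩ := hx
    apply hne
    have hc : x * m * x⁻¹ * m⁻¹ ∈ L0 M x := by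
      have hcM : x * m * x⁻¹ * m⁻¹ ∈ M := mul_mem (‹M.Normal›.conj_mem m hm x) (inv_mem hm)
      refine ⟨hcM, fun ψ hψ => ?_⟩
      have e : (⟨x * m * x⁻¹ * m⁻¹, hcM⟩ : M) = MulAut.conjNormal x (⟨m, hm⟩ : M) * (⟨m, hm⟩ : M)⁻¹ := by
        apply Subtype.ext
        simp
      rw [e, map_mul, map_inv, hψ, mul_inv_cancel]
    rw [h, Subgroup.mem_bot] at hc
    have h3 : x * m * x⁻¹ = m := by
      have := mul_inv_eq_one.1 hc
      exact this
    calc x * m = x * m * x⁻¹ * x := by group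
      _ = m * x := by rw [h3]
  · intro m
    have hm : (m : G) ∈ L0 M x := by rw [h]; exact m.2
    obtain ⟨h4, h5⟩ := hm
    have h6 := h5 φ hFx
    have h7 : (⟨(m : G), h4⟩ : M) = m := rfl
    rw [h7] at h6
    rw [hφ]
    show ((φ m : ℂˣ) : ℂ) = 1
    rw [h6]
    rfl

end Cfsg.Agent.Lib.VanP
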