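import Mathlib
import Cfsg.Agent.Lib.VanP.Defs
import Cfsg.Agent.Lib.Char.ItoMichler
import Cfsg.Agent.Lib.Char.CliffordCorr
import Cfsg.Agent.Lib.Char.FrobeniusKernel
import Cfsg.Agent.Lib.Char.Monomial

/-! Piece V2 of S4848: an irreducible character of a normal subgroup whose inertia group misses
the class of `g` gives an irreducible character vanishing at `g`. -/

set_option autoImplicit false

namespace Cfsg.Agent.Lib.VanP

open Cfsg Cfsg.Agent.Lib.Char

universe u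

variable {G : Type u} [Group G] [Finite G]

theorem exists_irr_zero_of_moved (M : Subgroup G) [hM : M.Normal] (θ : Cfsg.IrrCharacter M) (g : G)
    (hg : ∀ h : G, ¬ Fixes M (θ : M → ℂ) (h * g * h⁻¹)) : ∃ χ : Cfsg.IrrCharacter G, (χ : G → ℂ) g = 0 := by
  classical
  let _ : Fintype G := Fintype.ofFinite _
  let _ : Fintype M := Fintype.ofFinite _
  let ϑ : M → ℂ := (θ : M → ℂ)
  have hϑ : IsIrrCharacter M ϑ := θ.2
  obtain ⟨χ, hχ, hne⟩ := ItoMichler.exists_irr_over M hϑ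
  let T : Subgroup G := Monomial.inertiaOf M ϑ
  have hT := Monomial.mem_inertiaOf M ϑ
  have hcl : ∀ a b : M, ϑ (a * b * a⁻¹) = ϑ b := by
    intro a b
    exact Cfsg.Agent.Lib.Char.Basic.isClassFunction_of_isCharacter
      (Cfsg.Agent.Lib.Char.Basic.isCharacter_of_isIrrCharacter hϑ) b a
  have hMT : M ≤ T := by
    intro y hy
    rw [hT]
    intro n
    have h := hcl ⟨y, hy⟩ n
    rw [← h]
    rfl
  obtain ⟨ψ, hψ, hind, -⟩ := CliffordCorr.exists_indFun_eq M ϑ T hMT hϑ hT hχ hne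
  refine ⟨⟨χ, hχ⟩, ?_⟩
  show χ g = 0
  rw [← hind]
  apply FrobeniusKernel.indFun_eq_zero_of_notMem
  intro x hx
  have hx2 := (hT _).1 hx
  apply hg x⁻¹
  intro a b hab
  have hy : x⁻¹ * g * x⁻¹⁻¹ = x⁻¹ * g * x := by simp
  rw [hy] at hab
  have h3 := hx2 a
  have : (⟨x⁻¹ * g * x * a * (x⁻¹ * g * x)⁻¹, hM.conj_mem a a.2 _⟩ : M) = b := by
    apply Subtype.ext
    exact hab.symm
  rw [this] at h3
  exact h3

end Cfsg.Agent.Lib.VanP
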